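/-
The model group `2 ^ 10 : L₅(2)`: pairs (alternating matrix, element of `SL₅(2)`).
-/
import Mathlib

set_option autoImplicit false

namespace Cfsg.Agent.H17.LP

open Matrix

abbrev F := ZMod 2
abbrev M5 := Matrix (Fin 5) (Fin 5) F
abbrev SL5 := Matrix.SpecialLinearGroup (Fin 5) F

/-- Alternating matrices (`Λ² V`, `u ∧ v = u vᵀ + v uᵀ`). -/
def Alt (a : M5) : Prop := aᵀ = a ∧ ∀ i, a i i = 0

instance (a : M5) : Decidable (Alt a) := by unfold Alt; infer_instance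

theorem two_F (x : F) : x + x = 0 := by revert x; decide

theorem add_self_M (a : M5) : a + a = 0 := by ext i j; exact two_F _

theorem Alt.zero : Alt 0 := ⟨rfl, fun _ => rfl⟩

theorem Alt.add {a b : M5} (ha : Alt a) (hb : Alt b) : Alt (a + b) :=
  ⟨by rw [transpose_add, ha.1, hb.1], fun i => by simp [ha.2 i, hb.2 i]⟩

theorem Alt.symm {a : M5} (ha : Alt a) (i j : Fin 5) : a i j = a j i := by
  conv_lhs => rw [← ha.1]
  rfl

theorem Alt.act {a : M5} (ha : Alt a) (g : M5) : Alt (g * a * gᵀ) := by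
  refine ⟨by rw [transpose_mul, transpose_mul, transpose_transpose, ha.1, Matrix.mul_assoc], fun i => ?_⟩
  have h := ha.symm
  have e : ∀ x y : F, x + y + (y + x) = 0 := by decide
  simp only [mul_apply, transpose_apply, Fin.sum_univ_five, ha.2, h 1 0, h 2 0, h 3 0, h 4 0, h 2 1,
    h 3 1, h 4 1, h 3 2, h 4 2, h 4 3]
  have two : (2 : F) = 0 := rfl
  ring_nf
  simp [two]

theorem coe_mul' (g h : SL5) : (g * h).1 = g.1 * h.1 := rfl

/-- The model group. -/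
@[ext] structure N0 where
  a : M5
  g : SL5
  alt : Alt a

instance : Mul N0 := ⟨fun x y => ⟨x.a + x.g.1 * y.a * x.g.1ᵀ, x.g * y.g, x.alt.add (y.alt.act _)⟩⟩
instance : One N0 := ⟨⟨0, 1, Alt.zero⟩⟩
instance : Inv N0 := ⟨fun x => ⟨(x.g⁻¹).1 * x.a * (x.g⁻¹).1ᵀ, x.g⁻¹, x.alt.act _⟩⟩

@[simp] theorem mul_a (x y : N0) : (x * y).a = x.a + x.g.1 * y.a * x.g.1ᵀ := rfl
@[simp] theorem mul_g (x y : N0) : (x * y).g = x.g * y.g := rfl
@[simp] theorem one_a : (1 : N0).a = 0 := rfl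
@[simp] theorem one_g : (1 : N0).g = 1 := rfl
@[simp] theorem inv_a (x : N0) : (x⁻¹).a = (x.g⁻¹).1 * x.a * (x.g⁻¹).1ᵀ := rfl
@[simp] theorem inv_g (x : N0) : (x⁻¹).g = x.g⁻¹ := rfl

instance : Group N0 := Group.ofLeftAxioms
  (fun x y w => N0.ext (by
    simp only [mul_a, mul_g, coe_mul', transpose_mul, Matrix.mul_add,
      Matrix.add_mul, Matrix.mul_assoc, add_assoc]) (by simp [mul_assoc]))
  (fun x => N0.ext (by simp) (by simp))
  (fun x => N0.ext (by rw [mul_a, inv_a, inv_g, one_a, add_self_M]) (by simp))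

instance : DecidableEq N0 := fun x y =>
  decidable_of_iff (x.a = y.a ∧ x.g.1 = y.g.1) ⟨fun h => N0.ext h.1 (Subtype.ext h.2), fun h => by simp [h]⟩

instance : Finite N0 :=
  Finite.of_injective (fun x : N0 => (x.a, x.g.1)) fun _ _ h =>
    N0.ext (congrArg Prod.fst h) (Subtype.ext (congrArg Prod.snd h))

/-- The projection onto `SL₅(2)`. -/
def pr : N0 →* SL5 := ⟨⟨N0.g, rfl⟩, fun _ _ => rfl⟩

/-- The complement. -/
def lv : SL5 →* N0 := ⟨⟨fun g => ⟨0, g, Alt.zero⟩, rfl⟩, fun _ _ => N0.ext (by simp) rfl⟩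

/-- Indices `1, …, 5`. -/
def ix (n : ℕ) : Fin 5 := Fin.ofNat 5 (n + 4)

/-- The transvection `e_j ↦ e_j + e_i` (indices `1, …, 5`; the identity for `i = j`). -/
def X (i j : ℕ) : SL5 :=
  if h : ix i = ix j then 1 else ⟨1 + single (ix i) (ix j) 1, det_transvection_of_ne _ _ h 1⟩

theorem alt_E (i j : Fin 5) : Alt (single i j 1 + single j i 1) := by revert i j; decide

/-- `x_{ij}`. -/
def xx (i j : ℕ) : N0 := lv (X i j)

/-- `z_{ij} = e_i ∧ e_j`. -/
def zz (i j : ℕ) : N0 := ⟨single (ix i) (ix j) 1 + single (ix j) (ix i) 1, 1, alt_E _ _⟩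

/-- Closedness of a pattern. -/
def Cl (S R : ℕ → ℕ → Bool) : Prop :=
  (∀ i j k : Fin 5, R (i + 1) (k + 1) → R (k + 1) (j + 1) → R (i + 1) (j + 1)) ∧
  ∀ i j k l : Fin 5, S (k + 1) (l + 1) → (i = k ∨ R (i + 1) (k + 1)) → (j = l ∨ R (j + 1) (l + 1)) →
    i = j ∨ S (i + 1) (j + 1)

instance (S R : ℕ → ℕ → Bool) : Decidable (Cl S R) := by unfold Cl; infer_instance

/-- A submonoid of the finite group `N0` is a subgroup. -/
def ofSubmonoid (M : Submonoid N0) : Subgroup N0 where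
  toSubmonoid := M
  inv_mem' := fun {x} hx => by
    have h := orderOf_pos x
    have e : x⁻¹ = x ^ (orderOf x - 1) := by
      rw [inv_eq_iff_mul_eq_one, ← pow_succ', Nat.sub_add_cancel h, pow_orderOf_eq_one]
    rw [e]; exact M.pow_mem hx _

/-- The pattern subgroup: `a` is supported on `S`, `g - 1` on `R` (indices `1, …, 5`). -/
def Pat (S R : ℕ → ℕ → Bool) (h : Cl S R := by decide) : Subgroup N0 := ofSubmonoid
  { carrier := {n | (∀ i j : Fin 5, S (i + 1) (j + 1) = false → n.a i j = 0) ∧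
      ∀ i j : Fin 5, R (i + 1) (j + 1) = false → n.g.1 i j = (1 : M5) i j}
    one_mem' := ⟨fun _ _ _ => rfl, fun _ _ _ => rfl⟩
    mul_mem' := by
      rintro x y ⟨h1, h2⟩ ⟨h3, h4⟩
      have z1 : ∀ i k : Fin 5, x.g.1 i k ≠ 0 → i = k ∨ R (i + 1) (k + 1) := fun i k hk => by
        by_contra c
        rw [not_or] at c
        exact hk (by rw [h2 i k (by simpa using c.2), one_apply_ne c.1])
      refine ⟨fun i j hij => ?_, fun i j hij => ?_⟩
      · by_cases e : i = j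
        · subst e; exact (x * y).alt.2 i
        rw [mul_a, Matrix.add_apply, h1 i j hij, zero_add, mul_apply]
        refine Finset.sum_eq_zero fun l _ => ?_
        rw [mul_apply, Finset.sum_mul]
        refine Finset.sum_eq_zero fun k _ => ?_
        by_contra c
        have c1 := left_ne_zero_of_mul c
        have := h.2 i j k l (by
          by_contra d
          exact right_ne_zero_of_mul c1 (h3 k l (by simpa using d)))
          (z1 i k (left_ne_zero_of_mul c1)) (z1 j l (right_ne_zero_of_mul c))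
        simp [e, hij] at this
      · rw [mul_g, coe_mul', mul_apply, Finset.sum_eq_single i, h4 i j hij]
        · by_cases e : i = j
          · subst e; rw [h2 i i hij]; simp
          · rw [one_apply_ne e, mul_zero]
        · intro k _ hk
          by_cases c : R (i + 1) (k + 1) = false
          · rw [h2 i k c, one_apply_ne (Ne.symm hk), zero_mul]
          · by_cases d : R (k + 1) (j + 1) = false
            · rw [h4 k j d, one_apply_ne, mul_zero]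
              rintro rfl; exact c hij
            · have := h.1 i j k (by simpa using c) (by simpa using d)
              simp [hij] at this
        · simp }

theorem mem_Pat {S R : ℕ → ℕ → Bool} {h : Cl S R} {n : N0} : n ∈ Pat S R h ↔
    (∀ i j : Fin 5, S (i + 1) (j + 1) = false → n.a i j = 0) ∧
      ∀ i j : Fin 5, R (i + 1) (j + 1) = false → n.g.1 i j = (1 : M5) i j := Iff.rfl

instance (S R : ℕ → ℕ → Bool) (h : Cl S R) (n : N0) : Decidable (n ∈ Pat S R h) :=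
  have d : ∀ (P : ℕ → ℕ → Bool) (a b : M5),
      Decidable (∀ i j : Fin 5, P (i + 1) (j + 1) = false → a i j = b i j) := fun P a b =>
    @Fintype.decidableForallFintype _ _ (fun i => @Fintype.decidableForallFintype _ _
      (fun j => @instDecidableForall _ _ (instDecidableEqBool _ _) (ZMod.decidableEq 2 (a i j) (b i j))) _) _
  @decidable_of_iff _ _ mem_Pat.symm (@instDecidableAnd _ _ (d S n.a 0) (d R n.g.1 1))

/-- `A = Λ² V`. -/
def A0 : Subgroup N0 := Pat (fun _ _ => true) (fun _ _ => false)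
/-- The Sylow `2`-subgroup. -/
def T0 : Subgroup N0 := Pat (fun _ _ => true) (fun i j => i < j)
/-- `⟨z₁₂⟩`. -/
def Z0 : Subgroup N0 := Pat (fun i j => i ≤ 2 ∧ j ≤ 2) (fun _ _ => false)
/-- `V₂ = ⟨z₁₂, z₁₃⟩`. -/
def V0 : Subgroup N0 := Pat (fun i j => i ≤ 3 ∧ j ≤ 3 ∧ (i = 1 ∨ j = 1)) (fun _ _ => false)
/-- `U = Λ² ⟨e₁, e₂, e₃⟩`. -/
def U0 : Subgroup N0 := Pat (fun i j => i ≤ 3 ∧ j ≤ 3) (fun _ _ => false)
/-- `Z₆ = Λ² ⟨e₁, …, e₄⟩`. -/
def Z6 : Subgroup N0 := Pat (fun i j => i ≤ 4 ∧ j ≤ 4) (fun _ _ => false)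
/-- `A₁ = ⟨e₁, e₂⟩ ∧ V`. -/
def A1 : Subgroup N0 := Pat (fun i j => i ≤ 2 ∨ j ≤ 2) (fun _ _ => false)
/-- `Q = 2 ^ (1 + 12)`. -/
def Q0 : Subgroup N0 := Pat (fun i j => i ≤ 2 ∨ j ≤ 2) (fun i j => i ≤ 2 ∧ 3 ≤ j)
/-- `Q A`. -/
def QA : Subgroup N0 := Pat (fun _ _ => true) (fun i j => i ≤ 2 ∧ 3 ≤ j)
/-- `L = 2 ^ (3 + 12)`. -/
def L0 : Subgroup N0 := Pat (fun i j => i ≤ 3 ∨ j ≤ 3) (fun i j => i ≤ 3 ∧ 4 ≤ j)
/-- `A' = Z₆ ⟨x_{h5}⟩`. -/
def Ap : Subgroup N0 := Pat (fun i j => i ≤ 4 ∧ j ≤ 4) (fun i j => i ≤ 4 ∧ j = 5)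
/-- `J = A A'`. -/
def J0 : Subgroup N0 := Pat (fun _ _ => true) (fun i j => i ≤ 4 ∧ j = 5)
/-- `A'' = Z₆ ⟨x_{h5} z_{h5}⟩`. -/
def App : Subgroup N0 := Z6 ⊔ Subgroup.closure {n | ∃ h ∈ [1, 2, 3, 4], n = xx h 5 * zz h 5}
/-- `N₁ = J : L₄(2)`. -/
def N1 : Subgroup N0 := Pat (fun _ _ => true) (fun i _ => i ≤ 4)
/-- `H = C_N(z)`. -/
def H0 : Subgroup N0 := Pat (fun _ _ => true) (fun i j => i ≤ 2 ∨ 3 ≤ j)
/-- `N_N(U)`. -/
def K0 : Subgroup N0 := Pat (fun _ _ => true) (fun i j => i ≤ 3 ∨ 4 ≤ j)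
/-- `Λ = L₃(2)` on `⟨e₁, e₂, e₃⟩`. -/
def La : Subgroup N0 := Pat (fun _ _ => false) (fun i j => i ≤ 3 ∧ j ≤ 3)

theorem test_comm : xx 1 3 * zz 2 3 * xx 1 3 * zz 2 3 = zz 1 2 ∧ xx 1 3 * zz 1 4 ∈ Q0 ∧
    xx 3 4 ∉ Q0 := by unfold Q0; decide

end Cfsg.Agent.H17.LP
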