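/-
Groups with a `2`-local subgroup `2 ^ 10 : L₅(2)`: interfaces.
-/
import Cfsg.Agent.H17.LPMod
import Cfsg.Agent.H49.Large
import Cfsg.Prelude.Def_JankoFourType
import Cfsg.Prelude.Def_Classical
import Cfsg.Prelude.Def_TwoFusion

set_option autoImplicit false

namespace Cfsg.Agent.H17.LP

open Cfsg Subgroup Matrix

universe u

/-! ### The module -/

section Mod
variable {W : Type*} [AddCommGroup W] [Module F W]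

def Simp (ρ : Representation F SL5 W) : Prop :=
  Nontrivial W ∧ ∀ S : Submodule F W, (∀ g, ∀ w ∈ S, ρ g w ∈ S) → S = ⊥ ∨ S = ⊤

/-- Weight vectors. -/
def Wt (ρ : Representation F SL5 W) (v : W) (I : ℕ → Bool) : Prop :=
  v ≠ 0 ∧ (∀ i ∈ [1, 2, 3, 4], ρ (X i (i + 1)) v = v) ∧ ∀ i ∈ [1, 2, 3, 4],
    if I i then ρ (X (i + 1) i) v + ρ (X i (i + 1) * X (i + 1) i) v = v else ρ (X (i + 1) i) v = v

/-- `W` is the exterior square. -/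
def IsL2 (ρ : Representation F SL5 W) (θ : SL5 ≃* SL5) (e : M5 → W) : Prop :=
  (∀ a b, Alt a → Alt b → e (a + b) = e a + e b) ∧ (∀ a, Alt a → e a = 0 → a = 0) ∧
    (∀ w, ∃ a, Alt a ∧ e a = w) ∧ ∀ g a, Alt a → ρ (θ g) (e a) = e (g.1 * a * g.1ᵀ)
end Mod

def WtExStmt : Prop := ∀ (W : Type u) [AddCommGroup W] [Module F W] [Finite W]
  (ρ : Representation F SL5 W), Simp ρ → ∃ v I, Wt ρ v I

def WtUqStmt : Prop := ∀ (W : Type u) [AddCommGroup W] [Module F W] [Finite W]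
  (W' : Type) [AddCommGroup W'] [Module F W'] [Finite W']
  (ρ : Representation F SL5 W) (ρ' : Representation F SL5 W') (v : W) (v' : W') (I I' : ℕ → Bool),
  Simp ρ → Simp ρ' → Wt ρ v I → Wt ρ' v' I' → (∀ i ∈ [1, 2, 3, 4], I i = I' i) →
  ∃ e : W' ≃ₗ[F] W, ∀ g w, e (ρ' g w) = ρ g (e w)

/-- A stabiliser of a weight vector fixes the flag of type `I`. -/
def WtParStmt : Prop := ∀ (P : Subgroup SL5), (∀ i ∈ [1, 2, 3, 4], X i (i + 1) ∈ P) →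
  ∀ i ∈ [1, 2, 3, 4], X (i + 1) i ∉ P → ∀ g ∈ P, ∀ a b : Fin 5, (b : ℕ) < i → i ≤ (a : ℕ) → g.1 a b = 0

def WtBigStmt : Prop := ∀ (W : Type u) [AddCommGroup W] [Module F W] [Finite W]
  (ρ : Representation F SL5 W) (v : W) (I : ℕ → Bool), Wt ρ v I → I 3 = true →
  (I 1 = true ∨ I 2 = true) → 1024 < Nat.card W

/-- A simple module of the given weight whose order is not `1024`. -/
def ExMod (l : List ℕ) : Prop := ∃ (W' : Type) (_ : AddCommGroup W') (_ : Module F W') (_ : Finite W')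
  (ρ' : Representation F SL5 W') (v' : W'), Simp ρ' ∧ Wt ρ' v' (fun i => i ∈ l) ∧ Nat.card W' ≠ 1024

def WtL2Stmt : Prop := ∃ (W' : Type) (_ : AddCommGroup W') (_ : Module F W') (_ : Finite W')
  (ρ' : Representation F SL5 W') (v' : W') (e : M5 → W'), Simp ρ' ∧ Wt ρ' v' (fun i => i ∈ [2]) ∧
    IsL2 ρ' (MulEquiv.refl _) e

def TwStmt : Prop := ∃ θ : SL5 ≃* SL5, ∀ i ∈ [1, 2, 3, 4, 5], ∀ j ∈ [1, 2, 3, 4, 5],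
  θ (X i j) = X (6 - j) (6 - i)

def ModStmt : Prop := ∀ (W : Type u) [AddCommGroup W] [Module F W] [Finite W]
  (ρ : Representation F SL5 W), Simp ρ → Nat.card W = 1024 → ∃ θ e, IsL2 ρ θ e

def ModAsm : Prop := WtExStmt.{u} → WtUqStmt.{u} → WtBigStmt.{u} → ExMod [] → ExMod [1] →
  ExMod [1, 2] → ExMod [1, 4] → WtL2Stmt → TwStmt → ModStmt.{u}

/-! ### The extension splits -/

section Ext
variable {N : Type u} [Group N]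

structure Ex (ι : M5 → N) (π : N →* SL5) : Prop where
  add : ∀ a b, Alt a → Alt b → ι (a + b) = ι a * ι b
  inj : ∀ a, Alt a → ι a = 1 → a = 0
  ker : ∀ n, π n = 1 ↔ ∃ a, Alt a ∧ n = ι a
  surj : Function.Surjective π
  act : ∀ n a, Alt a → n * ι a * n⁻¹ = ι ((π n).1 * a * (π n).1ᵀ)

/-- Involutions over transvections. -/
def Inv (ι : M5 → N) (π : N →* SL5) : Prop := ∀ i ∈ [1, 2, 3, 4, 5], ∀ j ∈ [1, 2, 3, 4, 5], i ≠ j →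
  (∃ b, π b = X i j ∧ b * b = 1) ∧ ∀ b n : N, π b = X i j → b * b = 1 →
    (∀ k, (π n).1 (ix j) k = (1 : M5) (ix j) k) → (n * b * n⁻¹ * b) ^ 2 = 1 ∧
      (π n * X i j = X i j * π n → ∃ a, Alt a ∧ (∀ k, a (ix j) k = 0) ∧ n * b * n⁻¹ * b⁻¹ = ι a)

/-- An elementary abelian subgroup `A'` over the transvections with axis `x_j = 0`. -/
def HasAp (ι : M5 → N) (π : N →* SL5) (j : ℕ) : Prop := ∃ B : Subgroup N, (∀ b ∈ B, b * b = 1) ∧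
  (∀ a, Alt a → (ι a ∈ B ↔ ∀ k, a (ix j) k = 0)) ∧
  (∀ g : SL5, (∃ b ∈ B, π b = g) ↔ ∀ h k, k ≠ ix j ∨ h = ix j → g.1 h k = (1 : M5) h k) ∧
  ∀ n, (∀ k, (π n).1 (ix j) k = (1 : M5) (ix j) k) → n ∈ normalizer (B : Set N)

/-- A complement over the unipotent radical of the parabolic of type `(3, 2)`. -/
structure Lf (ι : M5 → N) (π : N →* SL5) (δ : N) (Fs R : Subgroup N) : Prop where
  pd : π δ = X 4 5 * X 5 4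
  d3 : δ ^ 3 = 1
  finj : ∀ f ∈ Fs, π f = 1 → f = 1
  fim : ∀ g, (∃ f ∈ Fs, π f = g) ↔ lv g ∈ L0
  nF : R ≤ normalizer (Fs : Set N)
  nd : R ≤ normalizer ((zpowers δ : Subgroup N) : Set N)
  rA : ∀ (a : M5) (h : Alt a), ι a ∈ R ↔ (⟨a, 1, h⟩ : N0) ∈ U0
  rsurj : ∀ g, lv g ∈ La ∨ g = X 4 5 → ∃ n ∈ R, π n = g

/-- Generators of a complement over the Sylow subgroup. -/
def Lev (π : N →* SL5) (R : Subgroup N) : Prop := ∃ a₁ ∈ R, ∃ a₂ ∈ R, ∃ a₄ ∈ R,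
  π a₁ = X 1 2 ∧ π a₂ = X 2 3 ∧ π a₄ = X 4 5 ∧ a₁ * a₁ = 1 ∧ a₂ * a₂ = 1 ∧ a₄ * a₄ = 1 ∧
    (a₁ * a₂) ^ 4 = 1 ∧ a₁ * a₄ = a₄ * a₁ ∧ a₂ * a₄ = a₄ * a₂
end Ext

def B1Stmt : Prop := ∀ {N : Type u} [Group N] [Finite N] (ι : M5 → N) (π : N →* SL5), Ex ι π →
  ∃ b, π b = X 1 5 ∧ b * b = 1

def Ap5Stmt : Prop := ∀ {N : Type u} [Group N] [Finite N] (ι : M5 → N) (π : N →* SL5), Ex ι π →
  (∃ b, π b = X 1 5 ∧ b * b = 1) → HasAp ι π 5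

def ApAllStmt : Prop := ∀ {N : Type u} [Group N] [Finite N] (ι : M5 → N) (π : N →* SL5), Ex ι π →
  HasAp ι π 5 → ∀ j ∈ [1, 2, 3, 4, 5], HasAp ι π j

def InvStmt : Prop := ∀ {N : Type u} [Group N] [Finite N] (ι : M5 → N) (π : N →* SL5), Ex ι π →
  (∀ j ∈ [1, 2, 3, 4, 5], HasAp ι π j) → Inv ι π

abbrev M3 := Matrix (Fin 3) (Fin 3) F
abbrev SL3 := Matrix.SpecialLinearGroup (Fin 3) F

/-- `H¹(L₃(2), M₃(2)) = 0`. -/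
def ExtStmt : Prop := ∀ c : SL3 → M3, (∀ g h, c (g * h) = c g + g.1 * c h * (g⁻¹).1) →
  ∃ m : M3, ∀ g, c g = m + g.1 * m * (g⁻¹).1

def LfStmt : Prop := ∀ {N : Type u} [Group N] [Finite N] (ι : M5 → N) (π : N →* SL5), Ex ι π →
  (∀ j ∈ [1, 2, 3, 4, 5], HasAp ι π j) → Inv ι π → ExtStmt → ∃ δ Fs R, Lf ι π δ Fs R

def LevStmt : Prop := ∀ {N : Type u} [Group N] [Finite N] (ι : M5 → N) (π : N →* SL5) (δ : N)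
  (Fs R : Subgroup N), Ex ι π → Inv ι π → Lf ι π δ Fs R → Lev π R

def GaStmt : Prop := ∀ {N : Type u} [Group N] [Finite N] (ι : M5 → N) (π : N →* SL5) (δ : N)
  (Fs R : Subgroup N), Ex ι π → Lf ι π δ Fs R → Lev π R → ∃ l : SL5 →* N, ∀ g, π (l g) = g

def SplitStmt : Prop := ∀ {N : Type u} [Group N] [Finite N] (ι : M5 → N) (π : N →* SL5), Ex ι π →
  ∃ l : SL5 →* N, ∀ g, π (l g) = g

theorem split_of (h1 : B1Stmt.{u}) (h2 : Ap5Stmt.{u}) (h3 : ApAllStmt.{u}) (h4 : InvStmt.{u})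
    (h5 : ExtStmt) (h6 : LfStmt.{u}) (h7 : LevStmt.{u}) (h8 : GaStmt.{u}) : SplitStmt.{u} := by
  intro N _ _ ι π h
  have a := h3 ι π h (h2 ι π h (h1 ι π h))
  have i := h4 ι π h a
  obtain ⟨δ, Fs, R, l⟩ := h6 ι π h a i h5
  exact h8 ι π δ Fs R h l (h7 ι π δ Fs R h i l)

/-! ### The frame -/

variable {G : Type u} [Group G]

/-- The frame: `N_G(A)` is the image of the model. -/
structure Fr (φ : N0 →* G) : Prop where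
  inj : Function.Injective φ
  nA : normalizer ((A0.map φ : Subgroup G) : Set G) = φ.range
  odd : pPrimeCore 2 ↥(centralizer ({φ (zz 1 2)} : Set G)) = ⊥

def FrameStmt : Prop := ModStmt.{u} → SplitStmt.{u} → ∀ {G : Type u} [Group G] [Finite G]
  (A : Subgroup G), IsElementaryAbelian 2 A → Nat.card A = 2 ^ 10 →
  Nonempty (↥(normalizer (A : Set G)) ⧸ A.subgroupOf (normalizer (A : Set G)) ≃* SL5) →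
  (∀ W : Subgroup G, W ≤ A → normalizer (A : Set G) ≤ normalizer (W : Set G) → W = ⊥ ∨ W = A) →
  (∀ T : Sylow 2 ↥(normalizer (A : Set G)), ∀ s : ↥(normalizer (A : Set G)),
    s ∈ (T : Subgroup ↥(normalizer (A : Set G))) → orderOf s = 2 →
    (∀ y ∈ (T : Subgroup ↥(normalizer (A : Set G))), y * s = s * y) →
    pPrimeCore 2 ↥(centralizer ({(s : G)} : Set G)) = ⊥) →
  ∃ φ : N0 →* G, Fr φ ∧ A0.map φ = A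

/-- `N_G(φ X)`. -/
abbrev NG (φ : N0 →* G) (Y : Subgroup N0) : Subgroup G := normalizer ((Y.map φ : Subgroup G) : Set G)
/-- `C_G(φ X)`. -/
abbrev CG (φ : N0 →* G) (Y : Subgroup N0) : Subgroup G := centralizer ((Y.map φ : Subgroup G) : Set G)
/-- `C_G(z)`. -/
abbrev Cz (φ : N0 →* G) : Subgroup G := centralizer ({φ (zz 1 2)} : Set G)
abbrev LXF (φ : N0 →* G) : Prop := H49.LX (Q0.map φ) (φ (zz 1 2))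

/-! ### Coordinates on `Q / Z` and tables -/

/-- The code of an element of `Q`: bits `z13 z14 z15 z23 z24 z25 x13 x14 x15 x23 x24 x25`. -/
def qc (n : N0) : ℕ :=
  (n.a 0 2).val + 2 * (n.a 0 3).val + 4 * (n.a 0 4).val + 8 * (n.a 1 2).val + 16 * (n.a 1 3).val +
  32 * (n.a 1 4).val + 64 * (n.g.1 0 2).val + 128 * (n.g.1 0 3).val + 256 * (n.g.1 0 4).val +
  512 * (n.g.1 1 2).val + 1024 * (n.g.1 1 3).val + 2048 * (n.g.1 1 4).val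

/-- The quadratic form (squaring). -/
def qf (v : ℕ) : ℕ := (v / 64 % 2 * (v / 8 % 2) + v / 128 % 2 * (v / 16 % 2) + v / 256 % 2 * (v / 32 % 2) +
  v / 512 % 2 * (v % 2) + v / 1024 % 2 * (v / 2 % 2) + v / 2048 % 2 * (v / 4 % 2)) % 2

def QKStmt : Prop :=
  (∀ u ∈ Q0, ∀ v ∈ Q0, qc (u * v) = qc u ^^^ qc v) ∧ (∀ u, qc u < 4096) ∧
  (∀ u ∈ Q0, qc u = 0 ↔ u = 1 ∨ u = zz 1 2) ∧ (∀ c < 4096, ∃ u ∈ Q0, qc u = c) ∧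
  (∀ u ∈ Q0, u * u = zz 1 2 ^ qf (qc u)) ∧
  (∀ u ∈ Q0, ∀ v ∈ Q0, u * v = v * u * zz 1 2 ^ (qf (qc u) + qf (qc v) + qf (qc u ^^^ qc v))) ∧
  (∀ u, u ∈ Z0 ↔ u = 1 ∨ u = zz 1 2) ∧ Nat.card Q0 = 2 ^ 13 ∧ H49.XS Q0 (zz 1 2) ∧
  (∀ n, n ∈ H0 ↔ n * zz 1 2 = zz 1 2 * n) ∧ H0 ≤ normalizer (Q0 : Set N0)

/-- Orders, generators and centralisers in the model. -/
def KitStmt : Prop :=
  Nat.card N0 = 2 ^ 20 * 9765 ∧ Nat.card A0 = 2 ^ 10 ∧ Nat.card T0 = 2 ^ 20 ∧ Nat.card L0 = 2 ^ 15 ∧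
  Nat.card U0 = 8 ∧ Nat.card V0 = 4 ∧ Nat.card Ap = 2 ^ 10 ∧ Nat.card App = 2 ^ 10 ∧
  Nat.card QA = 2 ^ 16 ∧ Nat.card N1 = 2 ^ 20 * 315 ∧ Nat.card ↥(N1 ⊓ H0) = 2 ^ 20 * 9 ∧
  Nat.card La = 168 ∧ Nat.card Z6 = 64 ∧ Nat.card J0 = 2 ^ 14 ∧ Nat.card A1 = 2 ^ 7

def GenStmt : Prop :=
  (∀ S R h, Pat S R h ≤ T0 → Pat S R h = closure {n | ∃ i ∈ [1, 2, 3, 4, 5], ∃ j ∈ [1, 2, 3, 4, 5],
    i ≠ j ∧ (S i j = true ∧ S j i = true ∧ n = zz i j ∨ R i j = true ∧ n = xx i j)}) ∧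
  La = closure {xx 1 2, xx 2 1, xx 2 3, xx 3 2} ∧
  H0 = A0 ⊔ closure {xx 1 2, xx 2 1, xx 2 3, xx 3 4, xx 4 3, xx 4 5, xx 5 4} ∧
  K0 = A0 ⊔ closure {xx 1 2, xx 2 1, xx 2 3, xx 3 2, xx 3 4, xx 4 5, xx 5 4} ∧
  N1 = A0 ⊔ closure {xx 1 2, xx 2 1, xx 2 3, xx 3 2, xx 3 4, xx 4 3, xx 4 5} ∧
  (⊤ : Subgroup N0) = closure {zz 4 5, xx 1 2, xx 2 1, xx 2 3, xx 3 2, xx 3 4, xx 4 3, xx 4 5, xx 5 4}

def NrmStmt : Prop :=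
  normalizer (U0 : Set N0) = K0 ∧ normalizer (Ap : Set N0) = N1 ∧ normalizer (App : Set N0) = N1 ∧
  normalizer (J0 : Set N0) = N1 ∧ normalizer (T0 : Set N0) = T0 ∧ centralizer (A0 : Set N0) = A0 ∧
  centralizer (A1 : Set N0) = A0 ∧ centralizer (Ap : Set N0) = Ap ∧ centralizer (App : Set N0) = App ∧
  centralizer (U0 : Set N0) = L0 ⊔ closure {zz 4 5, xx 4 5, xx 5 4} ∧
  centralizer (T0 : Set N0) = Z0 ∧ centralizer (Q0 : Set N0) = Z0 ∧ ⁅QA, QA⁆ = A1 ∧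
  (∀ n ∈ App, n * n = 1) ∧ (∀ n ∈ J0, n * n = 1 → n ∈ A0 ∨ n ∈ Ap ∨ n ∈ App) ∧
  (∀ v ∈ Q0, (∀ s ∈ T0, s * v * s⁻¹ * v⁻¹ ∈ Z0) → v ∈ V0) ∧ A0.Normal

/-- The preimage of `C_{Q / Z}(Y)`. -/
def CQ (Y : Subgroup N0) : Set N0 := {v | v ∈ Q0 ∧ ∀ s ∈ Y, v * s * v⁻¹ * s⁻¹ ∈ Z0}

/-- `Y / Q` is an elementary abelian subgroup of `T / Q`. -/
def El (Y : Subgroup N0) : Prop := Q0 ≤ Y ∧ Y ≤ T0 ∧ ∀ s ∈ Y, s * s ∈ Q0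

def Tb1Stmt : Prop := ∀ Y, El Y → (2 ^ 14 ≤ Nat.card Y → (CQ Y).ncard ≤ 2 ^ 9) ∧
  (2 ^ 15 ≤ Nat.card Y → (CQ Y).ncard ≤ 2 ^ 7)

def Tb2Stmt : Prop := ∀ Y, El Y → 2 ^ 16 ≤ Nat.card Y → (∀ u ∈ CQ Y, ∀ v ∈ CQ Y, u * v = v * u) ∧
  (2 ^ 5 < (CQ Y).ncard → Y = QA ∨ Y = Q0 ⊔ Ap ∨ Y = Q0 ⊔ App)

def Tb3Stmt : Prop := ∀ Y, El Y → (2 ^ 17 ≤ Nat.card Y → (CQ Y).ncard ≤ 2 ^ 4) ∧
  Nat.card Y ≤ 2 ^ 18 ∧ (Y ⊓ QA ≤ Q0 ⊔ zpowers (zz 3 4) → Nat.card Y ≤ 2 ^ 17)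

/-- The fixed spaces of the three special subgroups. -/
def Tb4Stmt : Prop := CQ QA = A1 ∧ CQ (Q0 ⊔ Ap) = (Q0 ⊓ Ap : Subgroup N0) ∧
  CQ (Q0 ⊔ App) = (Q0 ⊓ App : Subgroup N0) ∧ Nat.card ↥(Q0 ⊓ Ap) = 2 ^ 7 ∧
  Nat.card ↥(Q0 ⊓ App) = 2 ^ 7 ∧ Nat.card ↥(A1 ⊓ Ap) = 2 ^ 5 ∧
  QA ⊓ (Q0 ⊔ Ap) = Q0 ⊔ zpowers (zz 3 4) ∧ Nat.card ↥(Q0 ⊔ Ap) = 2 ^ 16 ∧
  Nat.card ↥(Q0 ⊔ App) = 2 ^ 16 ∧ T0 ≤ normalizer ((Q0 ⊔ Ap : Subgroup N0) : Set N0) ∧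
  T0 ≤ normalizer ((Q0 ⊔ App : Subgroup N0) : Set N0) ∧
  (∀ s ∈ T0, (∀ v ∈ A1, s * v * s⁻¹ * v⁻¹ ∈ Z0) → s ∈ QA) ∧
  (∀ s ∈ T0, (∀ t ∈ T0, s * t * s⁻¹ * t⁻¹ ∈ Q0) → s ∈ Q0 ⊔ closure {xx 1 2, zz 3 4}) ∧
  (∀ a ∈ QA, ∀ b ∈ Q0 ⊔ Ap, a ∉ Q0 ⊔ Ap → b ∉ QA → (a * b) ^ 2 ∈ Q0 →
    a * b ∈ Q0 ⊔ App ∧ CQ (Q0 ⊔ closure {zz 3 4, a * b}) = (Q0 ⊓ App : Subgroup N0)) ∧
  (∀ s ∈ Q0 ⊔ closure {xx 1 2, zz 3 4}, 2 ^ 7 < (CQ (Q0 ⊔ zpowers s)).ncard →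
    s ∈ Q0 ⊔ zpowers (zz 3 4))

/-- An invariant that separates `Q A` from `Q A''`. -/
def Sig (s : N0) : Prop := s * s ∈ Q0 ∧ ∀ v ∈ Q0, v * s * v⁻¹ * s⁻¹ ∈ Z0 → v * v = 1

def SigStmt : Prop := (∀ a ∈ QA, Sig (xx 1 2 * a)) ∧ ∀ s ∈ T0, ∃ a ∈ Q0 ⊔ App, ¬ Sig (s * a)

def E10Stmt : Prop := ∀ B : Subgroup N0, B ≤ T0 → (∀ b ∈ B, b * b = 1) → 2 ^ 10 ≤ Nat.card B →
  B = A0 ∨ B = Ap ∨ B = App

def InvNStmt : Prop := ∀ n : N0, n * n = 1 → ∃ g : N0, g * n * g⁻¹ ∈ App ∨ g * n * g⁻¹ = xx 1 5 ∨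
  g * n * g⁻¹ = xx 1 5 * zz 2 3 ∨ g * n * g⁻¹ = xx 1 4 * xx 2 5 ∨
  g * n * g⁻¹ = xx 1 4 * xx 2 5 * zz 1 4

/-- The orbits of `N₁` on `A''`. -/
def OrbAStmt : Prop :=
  (∀ n ∈ App, n = 1 ∨ ∃ r ∈ [zz 1 2, zz 1 2 * zz 3 4, xx 1 5 * zz 1 5, xx 1 5 * zz 1 5 * zz 2 3],
    ∃ g ∈ N1, n = g * r * g⁻¹) ∧
  {n | ∃ g ∈ N1, n = g * zz 1 2 * g⁻¹}.ncard = 35 ∧
  {n | ∃ g ∈ N1, n = g * (xx 1 5 * zz 1 5) * g⁻¹}.ncard = 120 ∧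
  {n | ∃ g ∈ N1, n = g * (xx 1 5 * zz 1 5 * zz 2 3) * g⁻¹}.ncard = 840

/-- The model facts. -/
structure MF : Prop where
  qk : QKStmt
  kit : KitStmt
  gen : GenStmt
  nrm : NrmStmt
  t1 : Tb1Stmt
  t2 : Tb2Stmt
  t3 : Tb3Stmt
  t4 : Tb4Stmt
  sig : SigStmt
  e10 : E10Stmt
  invN : InvNStmt
  orbA : OrbAStmt

end Cfsg.Agent.H17.LP
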