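import Cfsg.Agent.H29.PGL2Basic

/-!
# The Bruhat presentation of `PGL(2, F)`
-/

set_option autoImplicit false

namespace Cfsg.Agent.H17

open Cfsg.Agent.H29 Multiplicative
open scoped MatrixGroups

variable {F : Type*} [Field F]

/-- The relations between root elements, torus elements and the Weyl element of `PGL(2, F)`. -/
structure Bru {G : Type*} [Group G] (x : F → G) (h : Fˣ → G) (w : G) : Prop where
  xx : ∀ u v, x (u + v) = x u * x v
  hh : ∀ a b, h (a * b) = h a * h b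
  hx : ∀ (a : Fˣ) (u : F), h a * x u = x (a * u) * h a
  ww : w * w = 1
  wh : ∀ a, w * h a = h a⁻¹ * w
  wx : w * x 1 * w = x (-1) * w * x (-1)

namespace Bru

variable {G : Type*} [Group G] {x : F → G} {h : Fˣ → G} {w : G} (B : Bru x h w)
include B

theorem x0 : x 0 = 1 := by
  have := B.xx 0 0
  rw [add_zero] at this
  exact left_eq_mul.mp this

theorem h1 : h 1 = 1 := by
  have := B.hh 1 1
  rw [mul_one] at this
  exact left_eq_mul.mp this

theorem x_inv (u : F) : (x u)⁻¹ = x (-u) :=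
  inv_eq_of_mul_eq_one_right (by rw [← B.xx, add_neg_cancel, B.x0])

theorem h_inv (a : Fˣ) : (h a)⁻¹ = h a⁻¹ :=
  inv_eq_of_mul_eq_one_right (by rw [← B.hh, mul_inv_cancel, B.h1])

theorem w_inv : w⁻¹ = w := inv_eq_of_mul_eq_one_right B.ww

theorem xh (a : Fˣ) (u : F) : x u * h a = h a * x ((a⁻¹ : Fˣ) * u) := by
  rw [B.hx, Units.mul_inv_cancel_left]

theorem wxw (a : Fˣ) :
    w * x a * w = x (-(a⁻¹ : Fˣ)) * h (a⁻¹ * a⁻¹) * w * x (-(a⁻¹ : Fˣ)) := by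
  have e1 : x a = h a * x 1 * h a⁻¹ := by
    rw [B.hx, mul_one, mul_assoc, ← B.hh, mul_inv_cancel, B.h1, mul_one]
  have e2 : h a⁻¹ * w = w * h a := (B.wh a).symm
  calc w * x a * w = w * h a * x 1 * (h a⁻¹ * w) := by rw [e1]; simp only [mul_assoc]
    _ = h a⁻¹ * (w * x 1 * w) * h a := by rw [B.wh a]; nth_rw 2 [e2]; simp only [mul_assoc]
    _ = h a⁻¹ * x (-1) * w * (x (-1) * h a) := by rw [B.wx]; simp only [mul_assoc]
    _ = x (-(a⁻¹ : Fˣ)) * h a⁻¹ * (w * h a) * x (-(a⁻¹ : Fˣ)) := by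
      rw [B.hx, B.xh a, mul_neg_one]; simp only [mul_assoc]
    _ = _ := by rw [B.wh, B.hh]; simp only [mul_assoc]

/-- The Bruhat decomposition. -/
theorem bruhat {g : G} (hg : g ∈ Subgroup.closure (Set.range x ∪ Set.range h ∪ {w})) :
    (∃ a u, g = x u * h a) ∨ ∃ a u v, g = x u * h a * w * x v := by
  have key : ∀ s ∈ Set.range x ∪ Set.range h ∪ {w}, ∀ g : G,
      ((∃ a u, g = x u * h a) ∨ ∃ a u v, g = x u * h a * w * x v) →
      (∃ a u, s * g = x u * h a) ∨ ∃ a u v, s * g = x u * h a * w * x v := by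
    rintro s ((⟨t, rfl⟩ | ⟨b, rfl⟩) | rfl) _ (⟨a, u, rfl⟩ | ⟨a, u, v, rfl⟩)
    · exact Or.inl ⟨a, t + u, by rw [B.xx, mul_assoc]⟩
    · exact Or.inr ⟨a, t + u, v, by rw [B.xx]; simp only [mul_assoc]⟩
    · exact Or.inl ⟨b * a, b * u, by rw [← mul_assoc, B.hx, B.hh, mul_assoc]⟩
    · refine Or.inr ⟨b * a, b * u, v, ?_⟩
      rw [B.hh, ← mul_assoc (x _), ← B.hx]
      simp only [mul_assoc]
    · refine Or.inr ⟨a⁻¹, 0, (a⁻¹ : Fˣ) * u, ?_⟩
      rw [B.xh, B.x0, one_mul, ← B.wh, mul_assoc]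
    · have e : h a * s = s * h a⁻¹ := by rw [B.wh, inv_inv]
      by_cases hu : u = 0
      · refine Or.inl ⟨a⁻¹, (a⁻¹ : Fˣ) * v, ?_⟩
        rw [hu, B.x0, one_mul, e, ← B.hx, ← mul_assoc, ← mul_assoc, B.ww, one_mul]
      · obtain ⟨c, rfl⟩ := Ne.isUnit hu
        refine Or.inr ⟨c⁻¹ * c⁻¹ * a, -(c⁻¹ : Fˣ), (a⁻¹⁻¹ : Fˣ) * -((c⁻¹ : Fˣ) : F) + v, ?_⟩
        calc s * (x c * h a * s * x v) = s * x c * s * h a⁻¹ * x v := by
              rw [mul_assoc (x c), e]; simp only [mul_assoc]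
          _ = x (-(c⁻¹ : Fˣ)) * h (c⁻¹ * c⁻¹) * s * (x (-(c⁻¹ : Fˣ)) * h a⁻¹) * x v := by
              rw [B.wxw]; simp only [mul_assoc]
          _ = x (-(c⁻¹ : Fˣ)) * h (c⁻¹ * c⁻¹) * (s * h a⁻¹) *
                (x ((a⁻¹⁻¹ : Fˣ) * -((c⁻¹ : Fˣ) : F)) * x v) := by
              rw [B.xh a⁻¹]; simp only [mul_assoc]
          _ = _ := by rw [← e, B.xx, B.hh _ a]; simp only [mul_assoc]
  induction hg using Subgroup.closure_induction_left with
  | one => exact Or.inl ⟨1, 0, by rw [B.x0, B.h1, mul_one]⟩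
  | mul_left s hs g _ ih => exact key s hs g ih
  | inv_mul_cancel s hs g _ ih =>
    refine key s⁻¹ ?_ g ih
    rcases hs with (⟨t, rfl⟩ | ⟨b, rfl⟩) | rfl
    · exact Or.inl (Or.inl ⟨_, (B.x_inv t).symm⟩)
    · exact Or.inl (Or.inr ⟨_, (B.h_inv b).symm⟩)
    · exact Or.inr B.w_inv

theorem prod {G' : Type*} [Group G'] {x' : F → G'} {h' : Fˣ → G'} {w' : G'} (B' : Bru x' h' w') :
    Bru (fun u => (x u, x' u)) (fun a => (h a, h' a)) (w, w') :=
  ⟨fun u v => Prod.ext (B.xx u v) (B'.xx u v), fun u v => Prod.ext (B.hh u v) (B'.hh u v),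
    fun u v => Prod.ext (B.hx u v) (B'.hx u v), Prod.ext B.ww B'.ww,
    fun a => Prod.ext (B.wh a) (B'.wh a), Prod.ext B.wx B'.wx⟩

end Bru

/-- The map `z ↦ -1/z`. -/
noncomputable def wneg : PGL(2, F) := pmk (mat 0 (-1) 1 0 (by simp))

theorem wneg_smul_inf : (wneg : PGL(2, F)) • (inf : P1 F) = pt 0 := by
  rw [wneg, pmk_smul_inf_eq_pt]; simp

theorem bru_pgl : Bru (fun u : F => aff 1 u) (fun a => aff a (0 : F)) wneg where
  xx u v := by rw [aff_mul]; simp [add_comm]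
  hh a b := by rw [aff_mul]; simp
  hx a u := by rw [aff_mul, aff_mul]; simp
  ww := by
    rw [wneg, ← map_mul, pmk_eq_one_iff]
    simp [GL2_mul_apply]
  wh a := by
    rw [wneg, aff, aff, ← map_mul, ← map_mul, pmk_eq_pmk_iff]
    exact ⟨a, by simp [GL2_mul_apply]⟩
  wx := by
    rw [wneg, aff, aff, ← map_mul, ← map_mul, ← map_mul, ← map_mul, pmk_eq_pmk_iff]
    exact ⟨1, by simp [GL2_mul_apply]⟩

theorem aff_eq_mul (a : Fˣ) (u : F) : aff a u = aff 1 u * aff a 0 := by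
  rw [aff_mul]; simp

theorem pgl_cases (g : PGL(2, F)) :
    (∃ a u, g = aff a u) ∨ ∃ a u v, g = aff 1 v * wneg * aff a u := by
  rcases P1_cases (g • (inf : P1 F)) with e | ⟨s, e⟩
  · exact Or.inl ((smul_inf_eq_inf_iff g).mp e)
  · have e1 : (aff 1 s * wneg : PGL(2, F)) • (inf : P1 F) = pt s := by
      rw [mul_smul, wneg_smul_inf, aff_smul_pt]; simp
    have e2 : ((aff 1 s * wneg : PGL(2, F))⁻¹ * g) • (inf : P1 F) = inf := by
      rw [mul_smul, e, ← e1, inv_smul_smul]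
    obtain ⟨a, u, e3⟩ := (smul_inf_eq_inf_iff _).mp e2
    exact Or.inr ⟨a, u, s, by rw [← e3, mul_inv_cancel_left]⟩

/-- A nontrivial normal subgroup of `PGL(2, F)` contains the translations. -/
theorem aff_one_mem {N : Subgroup PGL(2, F)} (hN : N.Normal) (h0 : N ≠ ⊥) {c : Fˣ}
    (hc : c * c ≠ 1) : aff (1 : Fˣ) 1 ∈ N := by
  have k1 : ∀ u : F, u ≠ 0 → aff (1 : Fˣ) u ∈ N → aff (1 : Fˣ) 1 ∈ N := by
    intro u hu h
    obtain ⟨b, rfl⟩ := Ne.isUnit hu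
    have := hN.conj_mem _ h (aff b⁻¹ 0)
    rwa [aff_inv, aff_mul, aff_mul, show b⁻¹ * 1 * b⁻¹⁻¹ = 1 by simp,
      show ((b⁻¹ * 1 : Fˣ) : F) * (-((b⁻¹⁻¹ : Fˣ) : F) * 0) + (((b⁻¹ : Fˣ) : F) * b + 0) = 1
        by simp] at this
  have k2 : ∀ (a : Fˣ) (u : F), a ≠ 1 → aff a u ∈ N → aff (1 : Fˣ) 1 ∈ N := by
    intro a u ha h
    have := N.mul_mem (hN.conj_mem _ h (aff 1 1)) (N.inv_mem h)
    refine k1 (1 - a) (fun e => ha (Units.ext (sub_eq_zero.mp e).symm)) ?_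
    convert this using 1
    rw [aff_inv, aff_inv, aff_mul, aff_mul, aff_mul, aff_inj]
    constructor
    · simp
    · simp; ring
  obtain ⟨⟨n, hn⟩, n1⟩ := Subgroup.ne_bot_iff_exists_ne_one.mp h0
  have n1' : n ≠ 1 := fun e => n1 (Subtype.ext e)
  rcases pgl_cases n with ⟨a, u, rfl⟩ | ⟨a, u, v, rfl⟩
  · by_cases ha : a = 1
    · subst ha
      exact k1 u (fun e => n1' (by rw [e, aff_one_zero])) hn
    · exact k2 a u ha hn
  · have h1 : wneg * aff a (a * v + u) ∈ N := by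
      have := hN.conj_mem _ hn (aff 1 v)⁻¹
      rwa [inv_inv, mul_assoc (aff 1 v), inv_mul_cancel_left, mul_assoc, aff_mul, mul_one] at this
    generalize (a : F) * v + u = r at h1
    have h2 := N.mul_mem (N.inv_mem h1) (hN.conj_mem _ h1 (aff c 0))
    have e : (wneg * aff a r)⁻¹ * (aff c 0 * (wneg * aff a r) * (aff c 0)⁻¹) =
        (aff a r)⁻¹ * aff c⁻¹ 0 * aff a r * (aff c 0)⁻¹ := by
      have := (bru_pgl (F := F)).wh c⁻¹
      rw [inv_inv] at this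
      rw [← mul_assoc (aff c 0), ← this]
      group
    rw [e, aff_inv, aff_inv, aff_mul, aff_mul, aff_mul] at h2
    refine k2 _ _ (fun e => hc ?_) h2
    have : a⁻¹ * c⁻¹ * a * c⁻¹ = (c * c)⁻¹ := by
      rw [mul_comm a⁻¹, inv_mul_cancel_right, mul_inv]
    rwa [this, inv_eq_one] at e

theorem Bru.exists_hom {G : Type*} [Group G] {x : F → G} {h : Fˣ → G} {w : G} (B : Bru x h w) :
    ∃ φ : PGL(2, F) →* G, (∀ u, φ (aff 1 u) = x u) ∧ (∀ a, φ (aff a 0) = h a) ∧ φ wneg = w := by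
  have B' := B.prod (bru_pgl (F := F))
  set D := Subgroup.closure (Set.range (fun u : F => (x u, aff 1 u)) ∪
    Set.range (fun a : Fˣ => (h a, aff a (0 : F))) ∪ {(w, wneg)}) with hD
  have mx : ∀ u, (x u, aff 1 u) ∈ D := fun u => Subgroup.subset_closure (Or.inl (Or.inl ⟨u, rfl⟩))
  have mh : ∀ a, (h a, aff a (0 : F)) ∈ D := fun a =>
    Subgroup.subset_closure (Or.inl (Or.inr ⟨a, rfl⟩))
  have mw : (w, wneg) ∈ D := Subgroup.subset_closure (Or.inr rfl)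
  let π : D →* PGL(2, F) := (MonoidHom.snd _ _).comp D.subtype
  have hπ : Function.Bijective π := by
    refine ⟨(injective_iff_map_eq_one π).mpr ?_, fun g => ?_⟩
    · rintro ⟨g, hg⟩ e
      change g.2 = 1 at e
      refine Subtype.ext ?_
      rcases B'.bruhat hg with ⟨a, u, rfl⟩ | ⟨a, u, v, rfl⟩
      · change aff 1 u * aff a 0 = 1 at e
        rw [← aff_eq_mul, aff_eq_one] at e
        obtain ⟨rfl, rfl⟩ := e
        exact (congrArg₂ (· * ·) B'.x0 B'.h1).trans (mul_one _)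
      · change aff 1 u * aff a 0 * wneg * aff 1 v = 1 at e
        have := congrArg (· • (inf : P1 F)) e
        simp only [mul_smul, aff_smul_inf, wneg_smul_inf, aff_smul_pt, one_smul] at this
        exact absurd this (pt_ne_inf _)
    · rcases pgl_cases g with ⟨a, u, rfl⟩ | ⟨a, u, v, rfl⟩
      · exact ⟨⟨_, D.mul_mem (mx u) (mh a)⟩, (aff_eq_mul a u).symm⟩
      · exact ⟨⟨_, D.mul_mem (D.mul_mem (mx v) mw) (D.mul_mem (mx u) (mh a))⟩,
          congrArg (aff 1 v * wneg * ·) (aff_eq_mul a u).symm⟩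
  let e := MulEquiv.ofBijective π hπ
  have key : ∀ p (hp : p ∈ D), ((MonoidHom.fst _ _).comp D.subtype) (e.symm p.2) = p.1 := by
    intro p hp
    have : e.symm p.2 = ⟨p, hp⟩ := e.symm_apply_eq.mpr rfl
    rw [this]; rfl
  exact ⟨((MonoidHom.fst _ _).comp D.subtype).comp e.symm.toMonoidHom,
    fun u => key _ (mx u), fun a => key _ (mh a), key _ mw⟩

theorem Bru.exists_injective {G : Type*} [Group G] {x : F → G} {h : Fˣ → G} {w : G}
    (B : Bru x h w) (h1 : x 1 ≠ 1) {c : Fˣ} (hc : c * c ≠ 1) :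
    ∃ φ : PGL(2, F) →* G, Function.Injective φ ∧ (∀ u, φ (aff 1 u) = x u) ∧
      (∀ a, φ (aff a 0) = h a) ∧ φ wneg = w := by
  obtain ⟨φ, e1, e2, e3⟩ := B.exists_hom
  refine ⟨φ, (MonoidHom.ker_eq_bot_iff φ).mp (by_contra fun h0 => h1 ?_), e1, e2, e3⟩
  rw [← e1]
  exact aff_one_mem (MonoidHom.normal_ker φ) h0 hc

/-- The relations over a prime field. -/
theorem bru_of_prime {p : ℕ} [Fact p.Prime] {r : ℕ} {ρ : (ZMod p)ˣ} (hr : (ρ : ZMod p) = r)
    (hρ : orderOf ρ = p - 1) {G : Type*} [Group G] {X H W : G} (h1 : X ^ p = 1)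
    (h2 : H ^ (p - 1) = 1) (h3 : H * X = X ^ r * H) (h4 : W * W = 1) (h5 : W * H * (W * H) = 1)
    (h6 : (W * X) ^ 3 = 1) :
    ∃ (x : ZMod p → G) (h : (ZMod p)ˣ → G), Bru x h W ∧ x 1 = X := by
  have g1 : ∀ u : Multiplicative (ZMod p), u ∈ Subgroup.zpowers (ofAdd (1 : ZMod p)) := by
    intro u
    refine ⟨((toAdd u).val : ℕ), ?_⟩
    show ofAdd (1 : ZMod p) ^ (((toAdd u).val : ℕ) : ℤ) = u
    rw [zpow_natCast, ← ofAdd_nsmul, nsmul_one, ZMod.natCast_zmod_val, ofAdd_toAdd]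
  have o1 : orderOf X ∣ orderOf (ofAdd (1 : ZMod p)) := by
    rw [orderOf_ofAdd_eq_addOrderOf, ZMod.addOrderOf_one]
    exact orderOf_dvd_of_pow_eq_one h1
  have g2 : ∀ a : (ZMod p)ˣ, a ∈ Subgroup.zpowers ρ := by
    have : Subgroup.zpowers ρ = ⊤ := by
      apply Subgroup.eq_top_of_card_eq
      rw [Nat.card_zpowers, hρ, Nat.card_eq_fintype_card, ZMod.card_units]
    intro a
    rw [this]
    trivial
  have o2 : orderOf H ∣ orderOf ρ := hρ ▸ orderOf_dvd_of_pow_eq_one h2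
  obtain ⟨x, ex⟩ : ∃ x : Multiplicative (ZMod p) →* G, x (ofAdd 1) = X :=
    ⟨_, monoidHomOfForallMemZpowers_apply_gen g1 o1⟩
  obtain ⟨h, eh⟩ : ∃ h : (ZMod p)ˣ →* G, h ρ = H :=
    ⟨_, monoidHomOfForallMemZpowers_apply_gen g2 o2⟩
  have xn : ∀ n : ℕ, x (ofAdd (n : ZMod p)) = X ^ n := fun n => by
    rw [← ex, ← map_pow, ← ofAdd_nsmul, nsmul_one]
  have g3 : ∀ a : (ZMod p)ˣ, ∃ n : ℕ, ρ ^ n = a := fun a =>
    (mem_powers_iff_mem_zpowers.mpr (g2 a))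
  have c1 : ∀ u : ZMod p, H * x (ofAdd u) = x (ofAdd (ρ * u)) * H := by
    intro u
    rw [← ZMod.natCast_zmod_val u, hr, ← Nat.cast_mul, xn, xn, pow_mul]
    exact SemiconjBy.pow_right h3 _
  have c2 : W * H = H⁻¹ * W := by
    calc W * H = H⁻¹ * W * (W * W)⁻¹ * (W * H * (W * H)) * (W * H)⁻¹ * (W * H) := by group
      _ = _ := by rw [h4, h5]; group
  refine ⟨fun u => x (ofAdd u), h, ⟨fun u v => by rw [ofAdd_add, map_mul], map_mul h,
    fun a u => ?_, h4, fun a => ?_, ?_⟩, ex⟩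
  · obtain ⟨n, rfl⟩ := g3 a
    induction n generalizing u with
    | zero => simp
    | succ n ih =>
      rw [pow_succ, map_mul, eh, mul_assoc, c1, ← mul_assoc, ih, Units.val_mul, mul_assoc,
        mul_assoc]
  · obtain ⟨n, rfl⟩ := g3 a
    rw [map_inv, map_pow, eh, ← inv_pow]
    exact SemiconjBy.pow_right c2 n
  · show W * x (ofAdd 1) * W = x (ofAdd (-1)) * W * x (ofAdd (-1))
    rw [ofAdd_neg, map_inv, ex]
    calc W * X * W = (W * X) ^ 3 * X⁻¹ * W * (W * W)⁻¹ * X⁻¹ := by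
          simp only [pow_succ, pow_zero, one_mul]; group
      _ = _ := by rw [h4, h6]; group

end Cfsg.Agent.H17
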