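import Cfsg.Agent.H17.J4Simple
import Cfsg.Agent.H17.PGLPres

/-!
# The subgroup `PGL(2, 23)` of `J4`
-/

set_option autoImplicit false
set_option maxRecDepth 1000000

namespace Cfsg.Agent.H17.J4R

open Cfsg Cfsg.Agent.H42 Cfsg.Agent.H46 Cfsg.Agent.H81 Cfsg.Agent.H29
open scoped MatrixGroups

def progP : List (List ℕ) := [[3, 1, 0, 1, 3, 2, 0, 2, 0, 1, 0, 1, 0, 2, 0, 2, 0, 1, 0, 1, 3, 2, 0, 2, 3],
  [0, 2, 0, 2, 0, 2, 0, 3, 0, 2, 0, 3],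
  [1, 3, 1, 3, 1, 4, 1, 4, 1, 3],
  [2, 4, 2, 4, 2, 4, 2, 5, 2, 4, 2, 4, 2, 5, 2, 4]]

/-- The relations of `PGL(2, 23)`. -/
noncomputable def pglB (w h x : ℕ) : Bool :=
  O.eqB (O.pow x 23) O.one && O.eqB (O.pow h 22) O.one &&
    O.eqB (O.mul h x) (O.mul (O.pow x 5) h) && O.eqB (O.mul w w) O.one &&
    O.eqB (O.mul (O.mul w h) (O.mul w h)) O.one && O.eqB (O.pow (O.mul w x) 3) O.one &&
    !(O.eqB x O.one)

theorem pgl_chk : slpK progP (fun L => pglB (nthO L 0) (nthO L 1) (nthO L 2))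
    [mX, mY, mYi, mT] = true := by decide +kernel

theorem Hub.exists_pgl (hub : Hub) :
    ∃ φ : GL (Fin 2) (ZMod 23) ⧸ Subgroup.center (GL (Fin 2) (ZMod 23)) →* Spor.J4,
      Function.Injective φ := by
  obtain ⟨L, hL, h⟩ := slpK_spec (K := rho.range) (by
    intro a ha
    simp only [List.mem_cons, List.not_mem_nil, or_false] at ha
    rcases ha with rfl | rfl | rfl | rfl
    · exact ⟨_, ⟨_, rho_x⟩, R_X⟩
    · exact ⟨_, ⟨_, rho_y⟩, R_Y⟩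
    · exact ⟨_, rho.range.inv_mem ⟨_, rho_y⟩, R_Yi⟩
    · exact ⟨_, ⟨_, rho_t⟩, R_T⟩) pgl_chk
  obtain ⟨_, ⟨W, rfl⟩, rw⟩ := hL 0
  obtain ⟨_, ⟨H, rfl⟩, rh⟩ := hL 1
  obtain ⟨_, ⟨X, rfl⟩, rx⟩ := hL 2
  simp only [pglB, Bool.and_eq_true, Bool.not_eq_true'] at h
  obtain ⟨⟨⟨⟨⟨⟨h1, h2⟩, h3⟩, h4⟩, h5⟩, h6⟩, h7⟩ := h
  have : Fact (Nat.Prime 23) := ⟨by norm_num⟩
  have i := hub.injective
  have hρ : orderOf (ZMod.unitOfCoprime 5 (by norm_num) : (ZMod 23)ˣ) = 23 - 1 := by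
    rw [← orderOf_units, ZMod.coe_unitOfCoprime]
    exact (orderOf_eq_iff (by norm_num)).mpr ⟨by decide, by decide⟩
  obtain ⟨x, h, B, e⟩ := bru_of_prime (p := 23) (r := 5) (X := X) (H := H) (W := W)
    (ZMod.coe_unitOfCoprime 5 _) hρ
    (i (by rw [map_pow, map_one]; exact (CG.pow_eq_one_iff rx 23).mp h1))
    (i (by rw [map_pow, map_one]; exact (CG.pow_eq_one_iff rh 22).mp h2))
    (i (by
      rw [map_mul, map_mul, map_pow]
      exact CG.eq_of_eqB (CG.R_mul rh rx) (CG.R_mul (CG.R_pow rx 5) rh) h3))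
    (i (by rw [map_mul, map_one]; exact CG.eq_of_eqB (CG.R_mul rw rw) CG.R_one h4))
    (i (by
      rw [map_mul, map_mul, map_one]
      exact CG.eq_of_eqB (CG.R_mul (CG.R_mul rw rh) (CG.R_mul rw rh)) CG.R_one h5))
    (i (by
      rw [map_pow, map_mul, map_one]
      exact (CG.pow_eq_one_iff (CG.R_mul rw rx) 3).mp h6))
  obtain ⟨φ, hφ, -⟩ := B.exists_injective (c := ZMod.unitOfCoprime 5 (by norm_num))
    (fun e1 => CG.ne_of_eqB rx CG.R_one h7 (by rw [← e, e1, map_one]))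
    (fun e1 => by
      have := orderOf_dvd_of_pow_eq_one ((pow_two _).trans e1)
      rw [hρ] at this
      norm_num at this)
  exact ⟨φ, hφ⟩

theorem Hub.exists_pgl_of_iso (hub : Hub) {G : Type*} [Group G] (h : Spor.IsoJ4 G) :
    ∃ K : Subgroup G,
      Nonempty (↥K ≃* GL (Fin 2) (ZMod 23) ⧸ Subgroup.center (GL (Fin 2) (ZMod 23))) := by
  obtain ⟨e⟩ := h
  obtain ⟨φ, hφ⟩ := hub.exists_pgl
  exact ⟨(e.symm.toMonoidHom.comp φ).range,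
    ⟨(MonoidHom.ofInjective (f := e.symm.toMonoidHom.comp φ)
      (e.symm.injective.comp hφ)).symm⟩⟩

end Cfsg.Agent.H17.J4R
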